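import Cfsg.Agent.Lib.Comp.GOut

/-! Overgroups of a point stabiliser. -/

set_option autoImplicit false
set_option linter.unusedVariables false

namespace CA.GOver
open Equiv MulAction CA.CNet CA.CWord CA.CLevel CA.H27Pres CA.CSimple CA.CPoint CA.Fi CA.CBack CA.GOut

variable {C : Ctx} {f : ℕ → ℕ → ℕ} {A : Subgroup (Perm (Fin C.n))} {o : Fin C.n} {hs : List Word} {S : ℕ}

/-- a proper overgroup of the stabiliser that contains `hs` -/
structure Ov (C : Ctx) (A : Subgroup (Perm (Fin C.n))) (o : Fin C.n) (hs : List Word) (Y : Subgroup (Perm (Fin C.n))) :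
    Prop where
  le : Y ≤ A
  st : A ⊓ stabilizer _ o ≤ Y
  hs : C.grp hs ≤ Y
  ne : Y ≠ A

def Bd (C : Ctx) (A : Subgroup (Perm (Fin C.n))) (o : Fin C.n) (hs : List Word) (S : ℕ) : Prop :=
  ∀ Y, Ov C A o hs Y → ∀ y ∈ Y, S.testBit (y o) = true
def Sm (C : Ctx) (A : Subgroup (Perm (Fin C.n))) (o : Fin C.n) (hs : List Word) (m : ℕ) : Prop :=
  ∀ Y, Ov C A o hs Y → Nat.card Y ≤ m * Nat.card (A ⊓ stabilizer _ o : Subgroup _)

theorem Ov.mem {Y : Subgroup (Perm (Fin C.n))} (h : Ov C A o hs Y) {g y : Perm (Fin C.n)} (hg : g ∈ A) (hy : y ∈ Y)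
    (e : y o = g o) : g ∈ Y :=
  (Y.mul_mem_cancel_left (inv_mem hy)).1 (h.st ⟨A.mul_mem (inv_mem (h.le hy)) hg, by
    show y⁻¹ (g o) = o
    rw [← e]; simp⟩)

theorem Ov.cons {Y : Subgroup (Perm (Fin C.n))} (h : Ov C A o hs Y) {g : Word} (hg : C.ev g ∈ Y) : Ov C A o (g :: hs) Y :=
  ⟨h.le, h.st, (grp_le_iff _).2 (all_cons hg fun w hw => h.hs (mem_grp _ hw)), h.ne⟩

theorem Bd.mono (h : Bd C A o hs S) (g : Word) : Bd C A o (g :: hs) S := fun Y hY =>
  h Y ⟨hY.le, hY.st, (grp_mono _ fun w hw => by simp [hw]).trans hY.hs, hY.ne⟩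

theorem bd_full : Bd C A o hs (full C.n) := fun _ _ _ _ => by simp [testBit_full]

/-- the orbits of `hs` through the images of `o` -/
noncomputable def cl (C : Ctx) (f : ℕ → ℕ → ℕ) (o : ℕ) (hs gs : List Word) (sc : List ℕ) : ℕ :=
  C.clo hs sc (mkS (lmap (fun g => im f g o) gs) 0)

variable {k : ℕ} (hC : C.ok = true) (hf : GoodG C.g f) (hm : ∀ {w : Word}, (∀ a ∈ w, a < k) → C.ev w ∈ A)
include hC hf hm

theorem cl_spec {Y : Subgroup (Perm (Fin C.n))} (h : Ov C A o hs Y) {gs : List Word} (hk : lall gs (wlt k) = true)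
    {sc : List ℕ} {y : Perm (Fin C.n)} (hy : y ∈ Y) (e : (cl C f o hs gs sc).testBit (y o) = true) :
    ∃ g ∈ gs, C.ev g ∈ Y := by
  obtain ⟨x, hx, e⟩ := Ctx.clo_spec hC _ _ _ _ e
  have := mem_mkS e
  rw [lmap_eq] at this
  obtain ⟨g, hg, e⟩ := List.mem_map.1 this
  rw [hf.im_eq] at e
  exact ⟨g, hg, h.mem (hm (wlt_spec (lall_iff.1 hk g hg))) (mul_mem (h.hs hx) hy) (Fin.ext e.symm)⟩

theorem Bd.drop (h : Bd C A o hs S) {gs : List Word} {sc : List ℕ} {S' : ℕ}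
    (h1 : band (lall gs (wlt k)) (sub S (Nat.lor S' (cl C f o hs gs sc))) = true)
    (h2 : ∀ g ∈ gs, ∀ Y, ¬ Ov C A o (g :: hs) Y) : Bd C A o hs S' := fun Y hY y hy => by
  obtain ⟨h1, h3⟩ := band_iff.1 h1
  have := sub_spec h3 (h Y hY y hy)
  rw [Nat.lor_eq, Nat.testBit_or, Bool.or_eq_true] at this
  refine this.resolve_right fun e => ?_
  obtain ⟨g, hg, e⟩ := cl_spec hC hf hm hY h1 hy e
  exact h2 g hg Y (hY.cons e)

theorem Bd.base {g : Word} {sc sc' : List ℕ} {S' : ℕ}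
    (h1 : band (lall [g] (wlt k)) (sub (full C.n) (Nat.lor S' (cl C f o hs [g] sc))) = true)
    (h2 : sub (full C.n) (C.clo (g :: hs) sc' (bit o)) = true) : Bd C A o hs S' :=
  bd_full.drop hC hf hm h1 fun g' hg Y hY => hY.ne (le_antisymm hY.le fun a ha => by
    rw [List.mem_singleton.1 hg] at hY
    obtain ⟨x, hx, e⟩ := clo_bit hC _ sc' o (a o) (sub_spec h2 (by simp [testBit_full]))
    exact hY.mem ha (hY.hs hx) e)

theorem Bd.kill (h : Bd C A o hs S) (l : List (Word × Word)) {sc : List ℕ} {S' : ℕ}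
    (h1 : band (lall (lmap Prod.fst l) (wlt k)) (sub S (Nat.lor S' (cl C f o hs (lmap Prod.fst l) sc))) = true)
    (h2 : lall l (fun x => not (tb S (im f (subst (x.1 :: hs) x.2) o))) = true) : Bd C A o hs S' :=
  h.drop hC hf hm h1 fun g hg Y hY => by
    rw [lmap_eq] at hg
    obtain ⟨x, hx, rfl⟩ := List.mem_map.1 hg
    have := lall_iff.1 h2 x hx
    rw [hf.im_eq, tb_eq, h.mono x.1 Y hY _ (hY.hs (subst_mem_grp _ _ _))] at this
    exact absurd this (by decide)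

omit hf hm in
theorem card_le {Y : Subgroup (Perm (Fin C.n))} (hY : Y ≤ A) {m : ℕ} (h : ∀ y ∈ Y, S.testBit (y o) = true)
    (h1 : Nat.ble (cnt C.n S) m = true) : Nat.card Y ≤ m * Nat.card (A ⊓ stabilizer _ o : Subgroup _) := by
  rw [card_eq_orbit_mul Y o]
  refine Nat.mul_le_mul (le_trans ?_ (Nat.le_of_ble_eq_true h1)) (Subgroup.card_le_of_le (inf_le_inf_right _ hY))
  rw [← card_mask hC]
  exact Nat.card_le_card_of_injective (Subtype.map id fun i ⟨x, hx, e⟩ => e ▸ h x hx)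
    (Subtype.map_injective _ fun _ _ e => e)

omit hf hm in
theorem Bd.sm (h : Bd C A o hs S) {m : ℕ} (h1 : Nat.ble (cnt C.n S) m = true) : Sm C A o hs m :=
  fun Y hY => card_le hC hY.le (h Y hY) h1

theorem Bd.split (h : Bd C A o hs S) {gs : List Word} {sc : List ℕ} {S' m : ℕ}
    (h1 : band (band (lall gs (wlt k)) (sub S (Nat.lor S' (cl C f o hs gs sc)))) (Nat.ble (cnt C.n S') m) = true)
    (h2 : ∀ g ∈ gs, Sm C A o (g :: hs) m) : Sm C A o hs m := fun Y hY => by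
  obtain ⟨h1, h4⟩ := band_iff.1 h1
  obtain ⟨h1, h3⟩ := band_iff.1 h1
  by_cases e : ∃ g ∈ gs, C.ev g ∈ Y
  · obtain ⟨g, hg, e⟩ := e
    exact h2 g hg Y (hY.cons e)
  · refine card_le hC hY.le (fun y hy => ?_) h4
    have := sub_spec h3 (h Y hY y hy)
    rw [Nat.lor_eq, Nat.testBit_or, Bool.or_eq_true] at this
    exact this.resolve_right fun e' => e (cl_spec hC hf hm hY h1 hy e')

end CA.GOver
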