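import Cfsg.Agent.Lib.Comp.CMat

/-! Products of matrices over a prime field evaluated on packed rows of natural numbers. -/

set_option autoImplicit false
set_option maxHeartbeats 400000
set_option linter.all false

namespace CA.PMat22

open CA.CNet CA.CWord CA.CMat Matrix

noncomputable def dot (r : List ℕ) : List ℕ → ℕ :=
  List.rec (motive := fun _ => List ℕ → ℕ) (fun _ => 0)
    (fun a _ ih u => List.rec (motive := fun _ => ℕ) 0 (fun b u' _ => Nat.add (Nat.mul a b) (ih u')) u) r

theorem dot_eq (r u : List ℕ) (n : ℕ) (h : u.length ≤ n) :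
    dot r u = ∑ k ∈ Finset.range n, nth r 0 k * nth u 0 k := by
  induction r generalizing u n with
  | nil => show 0 = _; simp
  | cons a r ih =>
    cases u with
    | nil => show 0 = _; simp
    | cons b u =>
      obtain ⟨n, rfl⟩ : ∃ m, n = m + 1 := ⟨n - 1, by simp at h; omega⟩
      rw [Finset.sum_range_succ']
      show a * b + dot r u = _
      rw [ih u n (by simpa using h), add_comm]; rfl

theorem length_tabA {α : Type} (f : ℕ → α) (n k : ℕ) : (tabA f n k).length = n := by
  induction n generalizing k with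
  | zero => rfl
  | succ n ih => exact congrArg Nat.succ (ih _)

noncomputable def mv (d : ℕ) (X : Mat) (u : List ℕ) : List ℕ := tab d fun i => dot (nth X [] i) u

noncomputable def wv (d : ℕ) (L : List Mat) (w : Word) (u : List ℕ) : List ℕ :=
  List.rec (motive := fun _ => List ℕ) u (fun a _ ih => forceL ih fun v => mv d (nth L [] a) v) w

/-- the matrix of natural numbers -/
noncomputable def nm (d : ℕ) (X : Mat) : Matrix (Fin d) (Fin d) ℕ := Matrix.of fun i j => ent X i j

noncomputable def pn (d : ℕ) (L : List Mat) (w : Word) : Matrix (Fin d) (Fin d) ℕ :=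
  (w.map fun a => nm d (nth L [] a)).prod

theorem wv_spec (d : ℕ) (L : List Mat) (w : Word) (f : ℕ → ℕ) :
    (wv d L w (tab d f)).length = d ∧
      ∀ i : Fin d, nth (wv d L w (tab d f)) 0 i = (pn d L w *ᵥ fun j : Fin d => f j) i := by
  induction w with
  | nil => exact ⟨length_tabA _ _ _, fun i => (nth_tab f 0 i.2).trans (by simp [pn])⟩
  | cons a w ih =>
    have e : wv d L (a :: w) (tab d f) = mv d (nth L [] a) (wv d L w (tab d f)) := forceL_eq _ _
    rw [e]
    refine ⟨length_tabA _ _ _, fun i => ?_⟩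
    have e2 : pn d L (a :: w) = nm d (nth L [] a) * pn d L w := by simp [pn]
    rw [mv, nth_tab _ _ i.2, dot_eq _ _ d ih.1.le, e2, ← mulVec_mulVec, Finset.sum_range]
    refine Finset.sum_congr rfl fun k _ => ?_
    rw [ih.2 k]; rfl

theorem digit (t : ℕ) : ∀ (n : ℕ) (f : Fin n → ℕ), (∀ k, f k < t) → ∀ j : Fin n,
    (∑ k, f k * t ^ (k : ℕ)) / t ^ (j : ℕ) % t = f j := by
  intro n
  induction n with
  | zero => exact fun _ _ j => j.elim0
  | succ n ih =>
    intro f hf j
    have ht : 0 < t := lt_of_le_of_lt (Nat.zero_le _) (hf 0)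
    have e : ∑ k, f k * t ^ (k : ℕ) = f 0 + t * ∑ k : Fin n, f k.succ * t ^ (k : ℕ) := by
      rw [Fin.sum_univ_succ, Finset.mul_sum]
      simp only [Fin.val_zero, pow_zero, mul_one, Fin.val_succ]
      congr 1
      exact Finset.sum_congr rfl fun k _ => by ring
    rw [e]
    refine Fin.cases ?_ (fun j => ?_) j
    · simp [Nat.mod_eq_of_lt (hf 0)]
    · rw [Fin.val_succ, pow_succ', ← Nat.div_div_eq_div_mul, Nat.add_mul_div_left _ _ ht,
        Nat.div_eq_of_lt (hf 0), zero_add]
      exact ih (fun k => f k.succ) (fun k => hf _) j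

/-- the product along `w` is the scalar `c` modulo `p` -/
noncomputable def scal (p d t : ℕ) (L : List Mat) (w : Word) (c : ℕ) : Bool :=
  forceL (wv d L w (tab d fun _ => 1)) fun s => forceL (tab d fun j => Nat.pow t j) fun P =>
    forceL (wv d L w P) fun x => allR d fun i => band (Nat.blt (nth s 0 i) t)
      (force (nth x 0 i) fun y => allR d fun j =>
        Nat.beq (Nat.mod (Nat.mod (Nat.div y (nth P 0 j)) t) p) (Bool.rec 0 c (Nat.beq i j)))

/-- the matrix over the prime field -/
noncomputable def zm (p d : ℕ) (X : Mat) : Matrix (Fin d) (Fin d) (ZMod p) :=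
  (Nat.castRingHom (ZMod p)).mapMatrix (nm d X)

theorem scal_spec {p d t : ℕ} {L : List Mat} {w : Word} {c : ℕ} (h : scal p d t L w c = true) :
    (w.map fun a => zm p d (nth L [] a)).prod = (c : ZMod p) • (1 : Matrix (Fin d) (Fin d) (ZMod p)) := by
  simp only [scal, forceL_eq, force_eq] at h
  have e : (w.map fun a => zm p d (nth L [] a)).prod = (Nat.castRingHom (ZMod p)).mapMatrix (pn d L w) := by
    rw [pn, map_list_prod, List.map_map]; rfl
  rw [e]
  ext i j
  obtain ⟨h1, h2⟩ := band_iff.1 (allR_spec h i.2)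
  have h3 := Nat.eq_of_beq_eq_true (allR_spec h2 j.2)
  rw [Nat.blt_eq, (wv_spec d L w _).2 i] at h1
  rw [(wv_spec d L w _).2 i, nth_tab _ _ j.2] at h3
  have hb : ∀ k, pn d L w i k < t := fun k => lt_of_le_of_lt (by
    simp only [mulVec, dotProduct, mul_one]
    exact Finset.single_le_sum (f := fun k => pn d L w i k) (fun _ _ => Nat.zero_le _) (Finset.mem_univ k)) h1
  have h4 : pn d L w i j % p = Bool.rec 0 c (Nat.beq i j) := by
    rw [← digit t d _ hb j]; exact h3
  show ((pn d L w i j : ℕ) : ZMod p) = _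
  rw [← ZMod.natCast_mod, h4, Matrix.smul_apply, one_apply]
  split_ifs with h5
  · subst h5; rw [Nat.beq_refl]; simp
  · have : Nat.beq i j = false := by
      rw [← Bool.not_eq_true]; exact fun h6 => h5 (Fin.ext (Nat.eq_of_beq_eq_true h6))
    rw [this]; simp

/-- decoding of rows written in base eight -/
noncomputable def dec (d : ℕ) (X : List ℕ) : Mat :=
  lmap (fun r => tab d fun j => Nat.mod (Nat.shiftRight r (Nat.mul 3 j)) 8) X

/-- units from a list of letter matrices -/
noncomputable def un (p d : ℕ) (L : List Mat) (i : ℕ) : (Matrix (Fin d) (Fin d) (ZMod p))ˣ :=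
  open Classical in
  if h : zm p d (nth L [] (2 * i)) * zm p d (nth L [] (2 * i + 1)) = 1 then
    ⟨_, _, h, mul_eq_one_comm.1 h⟩ else 1

noncomputable def invs (p d t : ℕ) (L : List Mat) (k : ℕ) : Bool :=
  allR k fun i => scal p d t L [Nat.mul 2 i, Nat.succ (Nat.mul 2 i)] 1

theorem un_lv {p d t k : ℕ} {L : List Mat} (h : invs p d t L k = true) {a : ℕ} (ha : a < 2 * k) :
    ((lv (un p d L) a : (Matrix (Fin d) (Fin d) (ZMod p))ˣ) : Matrix (Fin d) (Fin d) (ZMod p)) =
      zm p d (nth L [] a) := by
  have h1 := scal_spec (allR_spec h (show a / 2 < k by omega))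
  have h2 : zm p d (nth L [] (2 * (a / 2))) * zm p d (nth L [] (2 * (a / 2) + 1)) = 1 := by
    simpa using h1
  unfold lv un
  rw [dif_pos h2]
  split_ifs with h3
  · show zm p d (nth L [] (2 * (a / 2))) = _
    rw [show 2 * (a / 2) = a by omega]
  · show zm p d (nth L [] (2 * (a / 2) + 1)) = _
    rw [show 2 * (a / 2) + 1 = a by omega]

theorem un_ev {p d t k : ℕ} {L : List Mat} (h : invs p d t L k = true) {w : Word} (hw : ∀ a ∈ w, a < 2 * k)
    {c : ℕ} (hc : scal p d t L w c = true) :
    ((ev (un p d L) w : (Matrix (Fin d) (Fin d) (ZMod p))ˣ) : Matrix (Fin d) (Fin d) (ZMod p)) =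
      (c : ZMod p) • (1 : Matrix (Fin d) (Fin d) (ZMod p)) := by
  rw [← scal_spec hc]
  clear hc
  induction w with
  | nil => rfl
  | cons a w ih =>
    rw [ev_cons, Units.val_mul, un_lv h (hw a (by simp)), ih fun b hb => hw b (by simp [hb])]
    rfl

end CA.PMat22
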